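import Cfsg.Agent.Ree.Main
import Cfsg.Agent.Ree.Syl2
import Cfsg.Agent.Ree.Abs3
import Cfsg.Agent.Ree.Tor4
import Mathlib.GroupTheory.Focal

set_option autoImplicit false
set_option maxHeartbeats 1000000
set_option linter.unusedSectionVars false

/-!
The derived group of the Ree group over the field with three elements.
-/

namespace Cfsg.Agent.Ree.RS

open scoped commutatorElement

variable {τ : Tits (ZMod 3)} {R : Type*} [Group R] (S : RS τ R)

lemma φ3 (a : ZMod 3) : τ.φ a = a := by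
  have : τ.φ = RingHom.id _ := Subsingleton.elim _ _
  rw [this]; rfl

lemma k3 (κ : (ZMod 3)ˣ) : κ = 1 ∨ κ = -1 := by
  revert κ; decide

/-- the kernel of a homomorphism on the Sylow 3-subgroup -/
def F0 : Subgroup R where
  carrier := {g | ∃ T U W : ZMod 3, U = T ^ 2 ∧ g = S.x T U W}
  mul_mem' := by
    rintro _ _ ⟨T, U, W, h, rfl⟩ ⟨T', U', W', h', rfl⟩
    refine ⟨_, _, _, ?_, S.x_mul _ _ _ _ _ _⟩
    rw [h, h', φ3]
    linear_combination (-T * T') * τ.h3
  one_mem' := ⟨0, 0, 0, by simp, S.x_zero.symm⟩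
  inv_mem' := by
    rintro _ ⟨T, U, W, h, rfl⟩
    refine ⟨_, _, _, ?_, S.x_inv _ _ _⟩
    rw [h, φ3]
    linear_combination (-T ^ 2) * τ.h3

lemma x_mem_F0 {T U W : ZMod 3} : S.x T U W ∈ S.F0 ↔ U = T ^ 2 := by
  constructor
  · rintro ⟨T', U', W', h, h'⟩
    obtain ⟨rfl, rfl, rfl⟩ := S.x_inj h'
    exact h
  · intro h
    exact ⟨T, U, W, h, rfl⟩

lemma focal_le : Subgroup.focalSubgroup S.U ≤ S.F0 := by
  rw [Subgroup.focalSubgroup_def, Subgroup.closure_le]
  rintro g ⟨hg, x, hx, u, rfl⟩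
  by_cases hx1 : x = 1
  · rw [hx1]; simp
  have h1 : u * x⁻¹ * u⁻¹ ∈ S.U := by
    have : u * x⁻¹ * u⁻¹ = x⁻¹ * ⁅x, u⁆ := by rw [commutatorElement_def]; group
    rw [this]
    exact mul_mem (inv_mem hx) hg
  have hu : u ∈ S.B := S.mem_B_of_conj (inv_mem hx) (by simpa using hx1) (S.U_le_B h1)
  obtain ⟨T, U, W, κ, rfl⟩ := S.mem_B.1 hu
  obtain ⟨T', U', W', rfl⟩ := S.mem_U.1 hx
  have e : ⁅S.x T' U' W', S.x T U W * S.h κ⁆ = S.x T' U' W' * (S.x T U W * (S.h κ * (S.x T' U' W')⁻¹ * (S.h κ)⁻¹) * (S.x T U W)⁻¹) := by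
    rw [commutatorElement_def]; group
  rw [SetLike.mem_coe, e, x_inv, h_conj_x, x_inv, x_mul, x_mul, x_mul, x_mem_F0]
  simp only [φ3]
  rcases k3 κ with rfl | rfl
  · simp only [Units.val_one]
    ring
  · simp only [Units.val_neg, Units.val_one]
    linear_combination (-2 * T' ^ 2) * τ.h3


/-- the derived group does not contain all of the Sylow 3-subgroup -/
lemma mem_comm3 {a : ZMod 3} (h : S.x 0 a 0 ∈ commutator R) : a = 0 := by
  have hfin := S.finite_R
  have : Fact (Nat.Prime 3) := ⟨Nat.prime_three⟩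
  have hK : Fintype.card (ZMod 3) = 3 ^ (2 * 0 + 1) := by rw [ZMod.card]; norm_num
  have h1 := Subgroup.commutator_inf_eq_focalSubgroup (S.sylU hK)
  rw [coe_sylU] at h1
  have h2 : S.x 0 a 0 ∈ Subgroup.focalSubgroup S.U := by
    rw [← h1]
    exact ⟨h, S.x_mem_U _ _ _⟩
  have h3 := S.focal_le h2
  rw [x_mem_F0] at h3
  rw [h3]; rfl

/-- the subgroup generated by the involutions -/
def Inv3 : Subgroup R := Subgroup.closure {g : R | g * g = 1}

lemma inv_mem_Inv3 {g : R} (h : g * g = 1) : g ∈ (Inv3 : Subgroup R) := Subgroup.subset_closure h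

lemma conj_Inv3 {g r : R} (h : g ∈ (Inv3 : Subgroup R)) : r * g * r⁻¹ ∈ (Inv3 : Subgroup R) := by
  induction h using Subgroup.closure_induction with
  | mem z hz =>
    apply inv_mem_Inv3
    have hz' : z * z = 1 := hz
    calc r * z * r⁻¹ * (r * z * r⁻¹) = r * (z * z) * r⁻¹ := by group
      _ = 1 := by rw [hz']; group
  | one => simp
  | mul a b _ _ ha hb =>
    have : r * (a * b) * r⁻¹ = (r * a * r⁻¹) * (r * b * r⁻¹) := by group
    rw [this]; exact mul_mem ha hb
  | inv a _ ha =>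
    have : r * a⁻¹ * r⁻¹ = (r * a * r⁻¹)⁻¹ := by group
    rw [this]; exact inv_mem ha

include S in
lemma conj_t3 {r : R} (h1 : r ≠ 1) (h2 : r * r = 1) : ∃ g : R, g * r * g⁻¹ = S.t := by
  have hfin := S.finite_R
  have : Fact (Nat.Prime 3) := ⟨Nat.prime_three⟩
  have hK : Fintype.card (ZMod 3) = 3 ^ (2 * 0 + 1) := by rw [ZMod.card]; norm_num
  exact S.conj_t hK h1 h2

lemma t_mem_comm : S.t ∈ commutator R := by
  have h1 : S.t * S.n ≠ 1 := by
    intro h
    apply S.t_ne_psi Tits.sw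
    rw [psi_sw]
    calc S.t = S.t * S.n * S.n⁻¹ := by group
      _ = S.n := by rw [h, one_mul, n_inv]
  have h2 : S.t * S.n * (S.t * S.n) = 1 := by
    calc S.t * S.n * (S.t * S.n) = S.t * (S.n * S.t) * S.n := by group
      _ = S.t * (S.t * S.n) * S.n := by rw [t_comm_n]
      _ = (S.t * S.t) * (S.n * S.n) := by group
      _ = 1 := by rw [t_mul_t, n_mul_n, one_mul]
  obtain ⟨g, hg⟩ := S.conj_t3 h1 h2
  obtain ⟨g', hg'⟩ := S.conj_t3 S.n_ne_one S.n_mul_n
  have key : ∀ a b : R, Abelianization.of (a * b * a⁻¹) = Abelianization.of b := by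
    intro a b
    rw [map_mul, map_mul, map_inv, mul_comm (Abelianization.of a), mul_assoc, mul_inv_cancel, mul_one]
  have e1 := key g (S.t * S.n)
  have e2 := key g' S.n
  rw [hg] at e1
  rw [hg'] at e2
  rw [map_mul, ← e2] at e1
  have e3 : Abelianization.of S.t = 1 := by
    have : Abelianization.of S.t * 1 = Abelianization.of S.t * Abelianization.of S.t := by rw [mul_one]; exact e1
    exact (mul_left_cancel this).symm
  have h4 : S.t ∈ (Abelianization.of : R →* Abelianization R).ker := e3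
  rwa [Abelianization.ker_of] at h4

include S in
lemma inv_mem_comm {r : R} (h2 : r * r = 1) : r ∈ commutator R := by
  by_cases h1 : r = 1
  · rw [h1]; exact one_mem _
  · obtain ⟨g, hg⟩ := S.conj_t3 h1 h2
    have h3 := S.t_mem_comm
    rw [← hg] at h3
    have := (inferInstance : (commutator R).Normal).conj_mem _ h3 g⁻¹
    have e : g⁻¹ * (g * r * g⁻¹) * g⁻¹⁻¹ = r := by group
    rwa [e] at this

include S in
lemma Inv3_le : (Inv3 : Subgroup R) ≤ commutator R := by
  rw [Inv3, Subgroup.closure_le]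
  intro g hg
  exact S.inv_mem_comm hg

lemma F0_le : S.F0 ≤ (Inv3 : Subgroup R) := by
  rintro g ⟨T, U, W, h, rfl⟩
  -- the commutator with the involution
  have key : ∀ T' W' : ZMod 3, S.t * S.x T' (T' ^ 2) W' * S.t⁻¹ * (S.x T' (T' ^ 2) W')⁻¹ ∈ (Inv3 : Subgroup R) := by
    intro T' W'
    have e : S.t * S.x T' (T' ^ 2) W' * S.t⁻¹ * (S.x T' (T' ^ 2) W')⁻¹ = S.t * (S.x T' (T' ^ 2) W' * S.t⁻¹ * (S.x T' (T' ^ 2) W')⁻¹) := by group
    rw [e, t_inv]
    exact mul_mem (inv_mem_Inv3 S.t_mul_t) (conj_Inv3 (inv_mem_Inv3 S.t_mul_t))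
  have h2 : ∃ W' : ZMod 3, S.x T U W = S.t * S.x T (T ^ 2) W' * S.t⁻¹ * (S.x T (T ^ 2) W')⁻¹ := by
    have e : ∀ W' : ZMod 3, S.t * S.x T (T ^ 2) W' * S.t⁻¹ * (S.x T (T ^ 2) W')⁻¹ = S.x (-T + -T) (T ^ 2 + (-T ^ 2 - T * T) - -T * -T)
      (-W' + (-W' - T * T ^ 2 + T * T ^ 2) - -T * T ^ 2 + -T * -T * -T - -T * (-T) ^ 2) := by
      intro W'
      rw [t_def, neg_one_conj, x_inv, x_mul]
      simp only [φ3]
    refine ⟨W - T ^ 3, ?_⟩
    rw [e]
    congr 1
    · linear_combination T * τ.h3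
    · rw [h]; linear_combination (T ^ 2) * τ.h3
    · linear_combination (-T ^ 3 + W) * τ.h3
  obtain ⟨W', h3⟩ := h2
  rw [h3]
  exact key T W'


/-- representatives of the cosets -/
lemma exists_rep (g : R) : ∃ a : ZMod 3, g * S.x 0 a 0 ∈ (Inv3 : Subgroup R) := by
  let P : Subgroup R :=
    { carrier := {g | ∃ a : ZMod 3, g * S.x 0 a 0 ∈ (Inv3 : Subgroup R)}
      mul_mem' := by
        rintro g g' ⟨a, ha⟩ ⟨b, hb⟩
        refine ⟨b + a, ?_⟩
        have e : S.x 0 (b + a) 0 = S.x 0 b 0 * S.x 0 a 0 := by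
          rw [x_mul]; simp
        have e2 : g * g' * S.x 0 (b + a) 0 = (g * (g' * S.x 0 b 0) * g⁻¹) * (g * S.x 0 a 0) := by rw [e]; group
        rw [e2]
        exact mul_mem (conj_Inv3 hb) ha
      one_mem' := ⟨0, by rw [one_mul, x_zero]; exact one_mem _⟩
      inv_mem' := by
        rintro g ⟨a, ha⟩
        refine ⟨-a, ?_⟩
        have e : S.x 0 (-a) 0 = (S.x 0 a 0)⁻¹ := by rw [x_inv]; simp
        have e2 : g⁻¹ * S.x 0 (-a) 0 = g⁻¹ * (g * S.x 0 a 0)⁻¹ * g⁻¹⁻¹ := by rw [e]; group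
        rw [e2]
        exact conj_Inv3 (inv_mem ha) }
  have hP : P = ⊤ := S.eq_top (fun T U W => by
    change ∃ a : ZMod 3, S.x T U W * S.x 0 a 0 ∈ (Inv3 : Subgroup R)
    refine ⟨T ^ 2 - U, S.F0_le ?_⟩
    rw [x_mul, x_mem_F0, map_zero]
    ring) (by
    change ∃ a : ZMod 3, S.n * S.x 0 a 0 ∈ (Inv3 : Subgroup R)
    exact ⟨0, by rw [x_zero, mul_one]; exact inv_mem_Inv3 S.n_mul_n⟩)
  have : g ∈ P := by rw [hP]; trivial
  exact this

include S in
theorem Inv3_eq : (Inv3 : Subgroup R) = commutator R := by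
  apply le_antisymm S.Inv3_le
  intro g hg
  obtain ⟨a, ha⟩ := S.exists_rep g
  have h1 : S.x 0 a 0 ∈ commutator R := by
    have : S.x 0 a 0 = g⁻¹ * (g * S.x 0 a 0) := by group
    rw [this]
    exact mul_mem (inv_mem hg) (S.Inv3_le ha)
  rw [S.mem_comm3 h1, x_zero, mul_one] at ha
  exact ha

include S in
theorem card_comm3 : Nat.card (commutator R) = 504 := by
  have hfin := S.finite_R
  have h1 : (commutator R).index = 3 := by
    have h2 : Nat.card (R ⧸ commutator R) = Nat.card (ZMod 3) := by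
      symm
      refine Nat.card_congr (Equiv.ofBijective (fun a => (QuotientGroup.mk (S.x 0 a 0) : R ⧸ commutator R)) ⟨?_, ?_⟩)
      · intro a b hab
        have h3 := QuotientGroup.eq.1 hab
        have e : (S.x 0 a 0)⁻¹ * S.x 0 b 0 = S.x 0 (b - a) 0 := by
          rw [x_inv, x_mul]
          simp only [φ3]
          congr 1 <;> ring
        rw [e] at h3
        have := S.mem_comm3 h3
        exact (sub_eq_zero.1 this).symm
      · intro z
        obtain ⟨g, rfl⟩ := QuotientGroup.mk_surjective z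
        obtain ⟨a, ha⟩ := S.exists_rep g⁻¹
        refine ⟨a, ?_⟩
        change (QuotientGroup.mk (S.x 0 a 0) : R ⧸ commutator R) = QuotientGroup.mk g
        symm
        rw [QuotientGroup.eq, ← Inv3_eq S]
        exact ha
    rw [Subgroup.index, h2, Nat.card_zmod]
  have h3 := (commutator R).card_mul_index
  rw [h1, S.card, ZMod.card] at h3
  omega

/-- the centralizer of the involution in the derived group -/
lemma cent_t3 {g : R} (hg : g ∈ commutator R) (h : S.t * g = g * S.t) : g * g = 1 := by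
  have key : ∀ s : Matrix.SpecialLinearGroup (Fin 2) (ZMod 3), ∃ a : ZMod 3, (s * Tits.su a) * (s * Tits.su a) = 1 ∨ (s * Tits.su a) * (s * Tits.su a) = -1 := by
    decide +kernel
  obtain ⟨s, hs⟩ := S.cent_cases h
  obtain ⟨a, ha⟩ := key s
  have h1 : S.psi (s * Tits.su a) * S.psi (s * Tits.su a) = 1 := by
    rw [← map_mul]
    exact S.psi_eq_one_iff.2 ha
  have h2 : S.psi (s * Tits.su a) ∈ commutator R := S.inv_mem_comm h1
  have h3 : S.psi s ∈ commutator R := by
    rcases hs with h | h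
    · rw [← h]; exact hg
    · have : S.psi s = S.t * g := by rw [h, ← mul_assoc, t_mul_t, one_mul]
      rw [this]
      exact mul_mem S.t_mem_comm hg
  have h4 : S.x 0 a 0 ∈ commutator R := by
    have : S.x 0 a 0 = (S.psi s)⁻¹ * S.psi (s * Tits.su a) := by rw [map_mul, psi_su]; group
    rw [this]
    exact mul_mem (inv_mem h3) h2
  have h5 := S.mem_comm3 h4
  rw [h5] at h1
  have h6 : Tits.su (0 : ZMod 3) = 1 := by decide
  rw [h6, mul_one] at h1
  rcases hs with h' | h'
  · rw [h']; exact h1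
  · rw [h']
    have h7 := S.t_comm_psi s
    calc S.t * S.psi s * (S.t * S.psi s) = S.t * (S.psi s * S.t) * S.psi s := by group
      _ = (S.t * S.t) * (S.psi s * S.psi s) := by rw [← h7]; group
      _ = 1 := by rw [h1, t_mul_t, one_mul]


/-- involutions of the derived group are conjugate in it -/
lemma conj_t3' {r : R} (h1 : r ≠ 1) (h2 : r * r = 1) : ∃ g ∈ commutator R, g * r * g⁻¹ = S.t := by
  obtain ⟨g, hg⟩ := S.conj_t3 h1 h2
  obtain ⟨a, ha⟩ := S.exists_rep g⁻¹
  rw [Inv3_eq S] at ha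
  refine ⟨(g⁻¹ * S.x 0 a 0)⁻¹, inv_mem ha, ?_⟩
  have h3 : S.t * S.x 0 a 0 = S.x 0 a 0 * S.t := S.t_comm_x.2 ⟨rfl, rfl⟩
  calc (g⁻¹ * S.x 0 a 0)⁻¹ * r * (g⁻¹ * S.x 0 a 0)⁻¹⁻¹ = (S.x 0 a 0)⁻¹ * (g * r * g⁻¹) * S.x 0 a 0 := by group
    _ = (S.x 0 a 0)⁻¹ * (S.t * S.x 0 a 0) := by rw [hg]; group
    _ = S.t := by rw [h3]; group

include S in
lemma cent_inv3 {r g : R} (h1 : r ≠ 1) (h2 : r * r = 1) (hg : g ∈ commutator R) (h : r * g = g * r) : g * g = 1 := by
  obtain ⟨c, hc, hc'⟩ := S.conj_t3' h1 h2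
  have h3 : c * g * c⁻¹ ∈ commutator R := mul_mem (mul_mem hc hg) (inv_mem hc)
  have h4 := S.cent_t3 h3 (by
    rw [← hc']
    calc c * r * c⁻¹ * (c * g * c⁻¹) = c * (r * g) * c⁻¹ := by group
      _ = _ := by rw [h]; group)
  have h5 : c * (g * g) * c⁻¹ = 1 := by rw [← h4]; group
  rwa [conj_eq_one_iff] at h5

include S in
theorem simple3 : IsSimpleGroup ↥(commutator R) where
  exists_pair_ne := ⟨⟨S.t, S.t_mem_comm⟩, 1, fun h => S.t_ne_one (congrArg Subtype.val h)⟩
  eq_bot_or_eq_top_of_normal := by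
    intro N hN
    have hfin := S.finite_R
    have hconj : ∀ n ∈ N, ∀ g : R, g ∈ commutator R → ∃ h, (⟨g * n * g⁻¹, h⟩ : ↥(commutator R)) ∈ N := by
      intro n hn g hg
      exact ⟨mul_mem (mul_mem hg n.2) (inv_mem hg), hN.conj_mem n hn ⟨g, hg⟩⟩
    by_cases h2 : 2 ∣ Nat.card N
    · right
      have : Fact (Nat.Prime 2) := ⟨Nat.prime_two⟩
      obtain ⟨⟨r, hr⟩, hro⟩ := exists_prime_orderOf_dvd_card' 2 h2
      rw [Subgroup.orderOf_mk] at hro
      have hr1 : (r : R) ≠ 1 := by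
        intro h
        have : r = 1 := Subtype.ext h
        rw [this, orderOf_one] at hro
        norm_num at hro
      have hr2 : (r : R) * r = 1 := by
        have : r * r = 1 := by rw [← sq, ← hro]; exact pow_orderOf_eq_one r
        exact congrArg Subtype.val this
      obtain ⟨c, hc, hc'⟩ := S.conj_t3' hr1 hr2
      obtain ⟨ht, ht'⟩ := hconj r hr c hc
      have htN : (⟨S.t, S.t_mem_comm⟩ : ↥(commutator R)) ∈ N := by
        have : (⟨c * r * c⁻¹, ht⟩ : ↥(commutator R)) = ⟨S.t, S.t_mem_comm⟩ := Subtype.ext hc'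
        rwa [this] at ht'
      have hle : (Inv3 : Subgroup R) ≤ N.map (commutator R).subtype := by
        rw [Inv3, Subgroup.closure_le]
        intro s hs
        have hs' : s * s = 1 := hs
        by_cases hs1 : s = 1
        · rw [hs1]; exact one_mem _
        obtain ⟨d, hd, hd'⟩ := S.conj_t3' hs1 hs'
        obtain ⟨h3, h4⟩ := hconj _ htN d⁻¹ (inv_mem hd)
        refine ⟨_, h4, ?_⟩
        change d⁻¹ * S.t * d⁻¹⁻¹ = s
        rw [← hd']; group
      rw [Inv3_eq S] at hle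
      rw [eq_top_iff]
      intro x _
      obtain ⟨y, hy, hxy⟩ := hle x.2
      have : y = x := Subtype.ext hxy
      rwa [← this]
    · left
      -- odd order
      have hodd : ∀ y ∈ N, y * y = 1 → y = 1 := by
        intro y hy h
        by_contra hne
        apply h2
        have h3 : orderOf y = 2 := orderOf_eq_prime (by rw [sq]; exact h) hne
        rw [← h3]
        exact Subgroup.orderOf_dvd_natCard _ hy
      have hinv : ∀ s : R, s ≠ 1 → s * s = 1 → ∀ w ∈ N, s * w * s = (w : R)⁻¹ := by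
        intro s hs1 hs2
        have hsc : s ∈ commutator R := S.inv_mem_comm hs2
        have hsi : s⁻¹ = s := by rw [inv_eq_iff_mul_eq_one]; exact hs2
        let s' : ↥(commutator R) := ⟨s, hsc⟩
        let f : N → N := fun y => ⟨y⁻¹ * (s' * y * s'⁻¹), mul_mem (inv_mem y.2) (hN.conj_mem _ y.2 s')⟩
        have hf : Function.Injective f := by
          intro y z hyz
          have h3 : (y : ↥(commutator R))⁻¹ * (s' * y * s'⁻¹) = (z : ↥(commutator R))⁻¹ * (s' * z * s'⁻¹) := congrArg Subtype.val hyz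
          have h4 : s' * ((y : ↥(commutator R)) * (z : ↥(commutator R))⁻¹) * s'⁻¹ = y * (z : ↥(commutator R))⁻¹ := by
            calc s' * ((y : ↥(commutator R)) * (z : ↥(commutator R))⁻¹) * s'⁻¹ = y * ((y : ↥(commutator R))⁻¹ * (s' * y * s'⁻¹)) * (s' * z * s'⁻¹)⁻¹ := by group
              _ = _ := by rw [h3]; group
          have h5 : s * (((y : ↥(commutator R)) : R) * ((z : ↥(commutator R)) : R)⁻¹) = (((y : ↥(commutator R)) : R) * ((z : ↥(commutator R)) : R)⁻¹) * s := by
            have h6 := congrArg Subtype.val h4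
            change s * (((y : ↥(commutator R)) : R) * ((z : ↥(commutator R)) : R)⁻¹) * s⁻¹ = (((y : ↥(commutator R)) : R) * ((z : ↥(commutator R)) : R)⁻¹) at h6
            rwa [mul_inv_eq_iff_eq_mul] at h6
          have h7 := S.cent_inv3 hs1 hs2 (mul_mem (y : ↥(commutator R)).2 (inv_mem (z : ↥(commutator R)).2)) h5
          have h8 := hodd ((y : ↥(commutator R)) * (z : ↥(commutator R))⁻¹) (mul_mem y.2 (inv_mem z.2)) (Subtype.ext h7)
          exact Subtype.ext (mul_inv_eq_one.1 h8)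
        have hsurj := Finite.surjective_of_injective hf
        intro w hw
        obtain ⟨y, hy⟩ := hsurj ⟨w, hw⟩
        have h3 : ((y : ↥(commutator R)) : R)⁻¹ * (s * ((y : ↥(commutator R)) : R) * s⁻¹) = w := congrArg (fun z : N => ((z : ↥(commutator R)) : R)) hy
        rw [← h3, hsi]
        calc s * (((y : ↥(commutator R)) : R)⁻¹ * (s * ((y : ↥(commutator R)) : R) * s)) * s
            = s * ((y : ↥(commutator R)) : R)⁻¹ * s * ((y : ↥(commutator R)) : R) * (s * s) := by group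
          _ = s⁻¹ * ((y : ↥(commutator R)) : R)⁻¹ * s⁻¹ * ((y : ↥(commutator R)) : R) := by rw [hs2, hsi, mul_one]
          _ = _ := by group
      have h1 : S.t * S.n ≠ 1 := by
        intro h
        apply S.t_ne_psi Tits.sw
        rw [psi_sw]
        calc S.t = S.t * S.n * S.n⁻¹ := by group
          _ = S.n := by rw [h, one_mul, n_inv]
      have h2 : S.t * S.n * (S.t * S.n) = 1 := by
        calc S.t * S.n * (S.t * S.n) = S.t * (S.n * S.t) * S.n := by group
          _ = S.t * (S.t * S.n) * S.n := by rw [t_comm_n]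
          _ = (S.t * S.t) * (S.n * S.n) := by group
          _ = 1 := by rw [t_mul_t, n_mul_n, one_mul]
      rw [Subgroup.eq_bot_iff_forall]
      intro w hw
      apply hodd w hw
      have e1 := hinv S.t S.t_ne_one S.t_mul_t w hw
      have e2 := hinv S.n S.n_ne_one S.n_mul_n w hw
      have e3 := hinv (S.t * S.n) h1 h2 w hw
      have e4 := hinv S.t S.t_ne_one S.t_mul_t w⁻¹ (inv_mem hw)
      have e5 : S.t * S.n * w * (S.t * S.n) = w := by
        calc S.t * S.n * (w : R) * (S.t * S.n) = S.t * S.n * (w : R) * (S.n * S.t) := by rw [t_comm_n]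
          _ = S.t * (S.n * w * S.n) * S.t := by group
          _ = S.t * (w : R)⁻¹ * S.t := by rw [e2]
          _ = w := by
            rw [Subgroup.coe_inv, inv_inv] at e4
            exact e4
      rw [e5] at e3
      apply Subtype.ext
      change (w : R) * w = 1
      nth_rw 1 [e3]
      group

end Cfsg.Agent.Ree.RS
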