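import Cfsg.Agent.Ree.Gen2
import Cfsg.Agent.Ree.Tor3
import Cfsg.Agent.Schur.Torus

set_option autoImplicit false
set_option maxHeartbeats 1000000

/-!
The Schur multiplier of the Ree groups: lifts of elements.
-/

open scoped commutatorElement

namespace Cfsg.Agent.Ree

open Cfsg.Agent.Schur

theorem comm_mul_left' {G : Type*} [Group G] {a a' b : G} (h : a * ⁅a', b⁆ = ⁅a', b⁆ * a) :
    ⁅a * a', b⁆ = ⁅a', b⁆ * ⁅a, b⁆ := by
  have h2 : ⁅a * a', b⁆ = (a * ⁅a', b⁆) * a⁻¹ * ⁅a, b⁆ := by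
    simp only [commutatorElement_def]; group
  rw [h2, h, mul_inv_cancel_right]

theorem comm_mul_right' {G : Type*} [Group G] {a b b' : G} (h : b * ⁅a, b'⁆ = ⁅a, b'⁆ * b) :
    ⁅a, b * b'⁆ = ⁅a, b⁆ * ⁅a, b'⁆ := by
  have h2 : ⁅a, b * b'⁆ = ⁅a, b⁆ * ((b * ⁅a, b'⁆) * b⁻¹) := by
    simp only [commutatorElement_def]; group
  rw [h2, h, mul_inv_cancel_right]

theorem comm_one_iff {G : Type*} [Group G] {a b : G} : ⁅a, b⁆ = 1 ↔ a * b = b * a := by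
  rw [commutatorElement_def, mul_inv_eq_one, mul_inv_eq_iff_eq_mul]

/-- the mixed form vanishes -/
theorem mixed_zero {K : Type*} [Field K] (τ : Tits K) (hns : ∀ x : K, x ^ 2 ≠ -1) (hex : ∃ y : K, y ≠ 0 ∧ y ≠ 1 ∧ y ≠ -1) {A : Type*} [AddCommGroup A]
    (B : K →+ K →+ A) (inv : ∀ κ : K, κ ≠ 0 → ∀ x y, B (κ ^ 2 * τ.φ κ * x) (κ * y) = B x y) : B = 0 := by
  have hφ0 : ∀ y, y ≠ 0 → τ.φ y ≠ 0 := fun y hy h => hy (by rw [← map_zero τ.φ] at h; exact τ.φ.injective h)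
  -- reduce to the second argument one
  have hs : ∀ y, y ≠ 0 → ∀ x, B x y = B (x / (y ^ 2 * τ.φ y)) 1 := by
    intro y hy x
    have h1 := inv y hy (x / (y ^ 2 * τ.φ y)) 1
    rw [mul_one, mul_div_cancel₀] at h1
    · exact h1
    · exact mul_ne_zero (pow_ne_zero 2 hy) (hφ0 y hy)
  have key : ∀ y : K, y ≠ 0 → y + 1 ≠ 0 → 1 / ((y + 1) ^ 2 * τ.φ (y + 1)) - 1 / (y ^ 2 * τ.φ y) - 1 ≠ 0 → B = 0 := by
    intro y hy hy1 hc
    have h1 : ∀ w, B w 1 = 0 := by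
      have h2 : ∀ x, B ((1 / ((y + 1) ^ 2 * τ.φ (y + 1)) - 1 / (y ^ 2 * τ.φ y) - 1) * x) 1 = 0 := by
        intro x
        have h3 : B x (y + 1) = B x y + B x 1 := map_add _ _ _
        rw [hs _ hy1, hs _ hy] at h3
        have h4 : (1 / ((y + 1) ^ 2 * τ.φ (y + 1)) - 1 / (y ^ 2 * τ.φ y) - 1) * x = x / ((y + 1) ^ 2 * τ.φ (y + 1)) - x / (y ^ 2 * τ.φ y) - x := by ring
        rw [h4, map_sub, map_sub, AddMonoidHom.sub_apply, AddMonoidHom.sub_apply, h3]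
        abel
      intro w
      have := h2 ((1 / ((y + 1) ^ 2 * τ.φ (y + 1)) - 1 / (y ^ 2 * τ.φ y) - 1)⁻¹ * w)
      rwa [mul_inv_cancel_left₀ hc] at this
    ext x z
    by_cases hz : z = 0
    · rw [hz, map_zero]; rfl
    · rw [hs z hz, h1]; rfl
  obtain ⟨y, hy0, hy1, hy2⟩ := hex
  have hyp : y + 1 ≠ 0 := fun h => hy2 (by linear_combination h)
  have hym : -y + 1 ≠ 0 := fun h => hy1 (by linear_combination -h)
  by_contra hB
  have e1 : 1 / ((y + 1) ^ 2 * τ.φ (y + 1)) - 1 / (y ^ 2 * τ.φ y) - 1 = 0 := by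
    by_contra h; exact hB (key y hy0 hyp h)
  have e2 : 1 / ((-y + 1) ^ 2 * τ.φ (-y + 1)) - 1 / ((-y) ^ 2 * τ.φ (-y)) - 1 = 0 := by
    by_contra h; exact hB (key (-y) (neg_ne_zero.2 hy0) hym h)
  have hf1 := hφ0 _ hyp
  have hf2 := hφ0 _ hym
  have hf := hφ0 _ hy0
  rw [map_add, map_one] at e1 e2 hf1 hf2
  rw [map_neg] at e2 hf2
  generalize τ.φ y = f at *
  -- `g = 1 / (y² f)`
  obtain ⟨g, hg⟩ : ∃ g, g = 1 / (y ^ 2 * f) := ⟨_, rfl⟩
  have g1 : g * f * y ^ 2 = 1 := by rw [hg]; field_simp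
  have g2 : (g + 1) * (f + 1) * (y + 1) ^ 2 = 1 := by
    have : g + 1 = 1 / ((y + 1) ^ 2 * (f + 1)) := by rw [hg]; linear_combination -e1
    rw [this]; field_simp
  have g3 : (1 - g) * (1 - f) * (1 - y) ^ 2 = 1 := by
    have e3 : 1 / ((-y) ^ 2 * -f) = - (1 / (y ^ 2 * f)) := by
      rw [neg_sq, mul_neg, div_neg]
    rw [e3, ← hg] at e2
    have h1 : 1 - g = 1 / ((-y + 1) ^ 2 * (-f + 1)) := by linear_combination -e2
    have h2 : (1 - f) * (1 - y) ^ 2 = (-y + 1) ^ 2 * (-f + 1) := by ring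
    rw [mul_assoc, h1, h2]; field_simp
  have h3 := τ.h3
  have h2 : (2 : K) ≠ 0 := τ.two_ne_zero'
  -- sum and difference
  have k1 : g * f + y ^ 2 + 1 + 2 * (g + f) * y = 0 := by
    have : 2 * (g * f + y ^ 2 + 1 + 2 * (g + f) * y) = 0 := by linear_combination g2 + g3 - 2 * g1
    exact (mul_eq_zero.1 this).resolve_left h2
  have k2 : 2 * (g * f + 1) * y + (g + f) * (y ^ 2 + 1) = 0 := by
    have : 2 * (2 * (g * f + 1) * y + (g + f) * (y ^ 2 + 1)) = 0 := by linear_combination g2 - g3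
    exact (mul_eq_zero.1 this).resolve_left h2
  -- eliminate
  have k3 : (y ^ 2 + 1) * ((g + f) * y - 1) = 0 := by
    -- 2(gf+1)y² + (g+f)(y²+1)y = 0, with gf y² = 1
    linear_combination y * k2 - 2 * g1 - (y ^ 2 + 1) * h3
  have k4 : (g + f) * y = 1 := by
    rcases mul_eq_zero.1 k3 with h | h
    · exact absurd (show y ^ 2 = -1 by linear_combination h) (hns y)
    · linear_combination h
  have k5 : (y ^ 2) ^ 2 = -1 := by
    -- gf y² + y⁴ + y² + 2 y² = 0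
    linear_combination y ^ 2 * k1 - g1 - 2 * y ^ 2 * k4 - y ^ 2 * h3
  exact hns _ k5


namespace RS

variable {K : Type*} [Field K] {τ : Tits K} {R : Type*} [Group R] (S : RS τ R)
variable {Γ : Type*} [Group Γ] {σ : Γ →* R} (hσ : Function.Surjective σ) (hc : σ.ker ≤ Subgroup.center Γ)

/-- a section -/
noncomputable def sec (hσ : Function.Surjective σ) : R → Γ := Function.surjInv hσ

lemma sec_eq (g : R) : σ (sec hσ g) = g := Function.surjInv_eq hσ g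

include hc

lemma sec_mem {x y : R} (h : x * y = y * x) : ⁅sec hσ x, sec hσ y⁆ ∈ Subgroup.center Γ := by
  apply hc
  rw [MonoidHom.mem_ker, map_commutatorElement, sec_eq, sec_eq]
  exact comm_one_iff.2 h

lemma cc_mul {x y y' : R} (h : x * y' = y' * x) : ⁅sec hσ x, sec hσ (y * y')⁆ = ⁅sec hσ x, sec hσ y⁆ * ⁅sec hσ x, sec hσ y'⁆ := by
  rw [← comm_mul_right (sec_mem hσ hc h)]
  apply comm_congr hc rfl
  rw [map_mul, sec_eq, sec_eq, sec_eq]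

lemma cc_mul_left {x x' y : R} (h : x' * y = y * x') : ⁅sec hσ (x * x'), sec hσ y⁆ = ⁅sec hσ x, sec hσ y⁆ * ⁅sec hσ x', sec hσ y⁆ := by
  rw [← comm_mul_left (sec_mem hσ hc h)]
  apply comm_congr hc ?_ rfl
  rw [map_mul, sec_eq, sec_eq, sec_eq]

lemma cc_conj {g x y : R} (h : x * y = y * x) : ⁅sec hσ (g * x * g⁻¹), sec hσ (g * y * g⁻¹)⁆ = ⁅sec hσ x, sec hσ y⁆ := by
  have h1 : ⁅sec hσ (g * x * g⁻¹), sec hσ (g * y * g⁻¹)⁆ = ⁅sec hσ g * sec hσ x * (sec hσ g)⁻¹, sec hσ g * sec hσ y * (sec hσ g)⁻¹⁆ := by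
    apply comm_congr hc <;> rw [map_mul, map_mul, map_inv] <;> simp only [sec_eq]
  rw [h1, ← comm_conj, Subgroup.mem_center_iff.1 (sec_mem hσ hc h) (sec hσ g), mul_inv_cancel_right]

lemma cc_one (x : R) : ⁅sec hσ x, sec hσ (1 : R)⁆ = 1 := by
  have h1 : ⁅sec hσ x, sec hσ (1 : R)⁆ = ⁅sec hσ x, (1 : Γ)⁆ := by
    apply comm_congr hc rfl
    rw [sec_eq, map_one]
  rw [h1, commutatorElement_one_right]

lemma cc_iff {a b : Γ} : a * b = b * a ↔ ⁅sec hσ (σ a), sec hσ (σ b)⁆ = 1 := by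
  rw [← comm_one_iff]
  have : ⁅sec hσ (σ a), sec hσ (σ b)⁆ = ⁅a, b⁆ := by
    apply comm_congr hc <;> rw [sec_eq]
  rw [this]

/-! ### the prime two -/

lemma lift_t_n : ⁅sec hσ S.t, sec hσ S.n⁆ = 1 ∧ ⁅sec hσ S.t, sec hσ S.j⁆ = 1 := by
  have h1 := cc_conj hσ hc (g := S.c3) S.t_comm_n
  have h2 := cc_conj hσ hc (g := S.c3) S.t_comm_j
  rw [c3_t, c3_n] at h1
  rw [c3_t, c3_j, cc_mul hσ hc S.t_comm_j] at h2
  have h3 : ⁅sec hσ S.t, sec hσ S.n⁆ = 1 := by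
    apply mul_right_cancel (b := ⁅sec hσ S.t, sec hσ S.j⁆)
    rw [one_mul]; exact h2
  exact ⟨h3, h1.trans h3⟩

lemma lift_t_E8 {y : R} (hy : y ∈ S.E8) : ⁅sec hσ S.t, sec hσ y⁆ = 1 := by
  obtain ⟨h1, h2⟩ := S.lift_t_n hσ hc
  have h0 : ⁅sec hσ S.t, sec hσ S.t⁆ = 1 := commutatorElement_self _
  have tn := S.t_comm_n
  have tj := S.t_comm_j
  have key : ∀ {y y' : R}, S.t * y' = y' * S.t → ⁅sec hσ S.t, sec hσ y⁆ = 1 → ⁅sec hσ S.t, sec hσ y'⁆ = 1 → ⁅sec hσ S.t, sec hσ (y * y')⁆ = 1 := by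
    intro y y' h e1 e2
    rw [cc_mul hσ hc h, e1, e2, one_mul]
  rcases S.mem_E8.1 hy with rfl | rfl | rfl | rfl | rfl | rfl | rfl | rfl
  · exact cc_one hσ hc _
  · exact h0
  · exact h1
  · exact h2
  · exact key tn h0 h1
  · exact key tj h0 h2
  · exact key tj h1 h2
  · exact key tj (key tn h0 h1) h2

lemma lift_E8 [Fintype K] {m : ℕ} (hK : Fintype.card K = 3 ^ (2 * m + 1)) [Finite R] {x y : R} (hx : x ∈ S.E8) (hy : y ∈ S.E8) :
    ⁅sec hσ x, sec hσ y⁆ = 1 := by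
  by_cases h1 : x = 1
  · subst h1
    have := cc_one hσ hc y
    rw [← inv_inj, commutatorElement_inv, inv_one]
    exact this
  obtain ⟨g, hg, rfl⟩ := S.normalizer_trans hK hx h1
  have h2 : g⁻¹ * y * g ∈ S.E8 := by
    have := (Subgroup.mem_normalizer_iff.1 (inv_mem hg) y).1 hy
    rwa [inv_inv] at this
  have h3 := cc_conj hσ hc (g := g) (x := S.t) (y := g⁻¹ * y * g) (S.E8_comm S.t_mem_E8 h2)
  have e : g * (g⁻¹ * y * g) * g⁻¹ = y := by group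
  rw [e] at h3
  rw [h3]
  exact S.lift_t_E8 hσ hc h2

end RS

end Cfsg.Agent.Ree
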