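import Cfsg.Agent.Ree.SchurR

set_option autoImplicit false
set_option maxHeartbeats 1000000

/-!
The Schur multiplier of the Ree groups: the prime three.
-/

open scoped commutatorElement

namespace Cfsg.Agent.Ree

open Cfsg.Agent.Schur

namespace RS

variable {K : Type*} [Field K] {τ : Tits K} {R : Type*} [Group R] (S : RS τ R)
variable {Γ : Type*} [Group Γ] {σ : Γ →* R} (hσ : Function.Surjective σ) (hc : σ.ker ≤ Subgroup.center Γ)

lemma z_comm (W T U W' : K) : S.x 0 0 W * S.x T U W' = S.x T U W' * S.x 0 0 W := by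
  rw [x_mul, x_mul]
  congr 1
  · ring
  · rw [map_zero]; ring
  · rw [map_zero]; ring

lemma e_comm (U W U' W' : K) : S.x 0 U W * S.x 0 U' W' = S.x 0 U' W' * S.x 0 U W := by
  rw [x_mul, x_mul]
  congr 1
  · rw [map_zero]; ring
  · rw [map_zero]; ring

lemma x0_mul (U W U' W' : K) : S.x 0 U W * S.x 0 U' W' = S.x 0 (U + U') (W + W') := by
  rw [x_mul]
  congr 1
  · ring
  · rw [map_zero]; ring
  · rw [map_zero]; ring

/-- splitting off the last coordinates -/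
lemma x_split (T U W : K) : S.x T U W = S.x T 0 0 * S.x 0 U W := by
  rw [x_mul]
  congr 1
  · ring
  · rw [map_zero]; ring
  · rw [map_zero]; ring

lemma e_split (U W : K) : S.x 0 U W = S.x 0 U 0 * S.x 0 0 W := by
  rw [x0_mul, add_zero, zero_add]

lemma x_add (T T' : K) : ∃ U W, S.x T 0 0 * S.x T' 0 0 = S.x (T + T') 0 0 * S.x 0 U W := by
  rw [x_mul]
  exact ⟨_, _, S.x_split _ _ _⟩

lemma e_cube (U W : K) : S.x 0 U W * (S.x 0 U W * S.x 0 U W) = 1 := by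
  rw [x0_mul, x0_mul, ← S.x_zero]
  have := τ.h3
  congr 1
  · linear_combination U * this
  · linear_combination W * this

lemma t_conj_x (T U W : K) : S.t * S.x T U W * S.t⁻¹ = S.x (-T) U (-W) := by
  rw [t_def, h_conj_x]
  congr 1
  · simp
  · simp
  · simp

include hc

/-- values of the pairing are killed by squaring and cubing -/
lemma cc_kill {x y : R} (h : x * y = y * x) (h3 : y * (y * y) = 1) {g : R} (hx : g * x * g⁻¹ = x⁻¹) (hy : g * y * g⁻¹ = y) :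
    ⁅sec hσ x, sec hσ y⁆ = 1 := by
  have e1 := cc_conj hσ hc (g := g) h
  rw [hx, hy] at e1
  have hx' : x⁻¹ * y = y * x⁻¹ := by
    rw [inv_mul_eq_iff_eq_mul, ← mul_assoc, h, mul_inv_cancel_right]
  have e2 : ⁅sec hσ x, sec hσ y⁆ * ⁅sec hσ x⁻¹, sec hσ y⁆ = 1 := by
    rw [← cc_mul_left hσ hc hx', mul_inv_cancel]
    have := cc_one hσ hc y
    rw [← inv_inj, commutatorElement_inv, inv_one]
    exact this
  rw [e1] at e2
  have e3 : ⁅sec hσ x, sec hσ y⁆ * (⁅sec hσ x, sec hσ y⁆ * ⁅sec hσ x, sec hσ y⁆) = 1 := by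
    rw [← cc_mul hσ hc h, ← cc_mul hσ hc (by rw [← mul_assoc, h, mul_assoc, h, mul_assoc]), h3]
    exact cc_one hσ hc _
  rw [e2, mul_one] at e3
  exact e3

/-- lifts of the centre commute with lifts of the abelian normal subgroup -/
lemma zE (W U W' : K) : ⁅sec hσ (S.x 0 0 W), sec hσ (S.x 0 U W')⁆ = 1 := by
  have h1 : ⁅sec hσ (S.x 0 0 W), sec hσ (S.x 0 U 0)⁆ = 1 := by
    apply cc_kill hσ hc (S.z_comm W 0 U 0) (S.e_cube U 0) (g := S.t)
    · rw [t_conj_x, x_inv]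
      congr 1
      · ring
      · rw [map_zero]; ring
    · rw [t_conj_x, neg_zero]
  have h2 : ⁅sec hσ (S.x 0 0 W), sec hσ (S.x 0 0 W')⁆ = 1 := by
    -- the second element is a commutator
    have h3 := S.x_comm0 1 0 0 W' 0
    rw [one_mul] at h3
    have hz : ∀ T U W', S.x 0 0 W * S.x T U W' = S.x T U W' * S.x 0 0 W := S.z_comm W
    have hinv : ∀ y : R, (∃ T U W', y = S.x T U W') → S.x 0 0 W * y⁻¹ = y⁻¹ * S.x 0 0 W := by
      rintro y ⟨T, U, W', rfl⟩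
      rw [eq_inv_mul_iff_mul_eq, ← mul_assoc, ← hz, mul_inv_cancel_right]
    rw [← h3]
    have h4 : S.x 1 0 0 * S.x 0 W' 0 * (S.x 0 W' 0 * S.x 1 0 0)⁻¹ = S.x 1 0 0 * (S.x 0 W' 0 * ((S.x 1 0 0)⁻¹ * (S.x 0 W' 0)⁻¹)) := by group
    rw [h4]
    have i1 := hinv _ ⟨1, 0, 0, rfl⟩
    have i2 := hinv _ ⟨0, W', 0, rfl⟩
    have c1 : S.x 0 0 W * ((S.x 1 0 0)⁻¹ * (S.x 0 W' 0)⁻¹) = ((S.x 1 0 0)⁻¹ * (S.x 0 W' 0)⁻¹) * S.x 0 0 W := by
      rw [← mul_assoc, i1, mul_assoc, i2, mul_assoc]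
    have c2 : S.x 0 0 W * (S.x 0 W' 0 * ((S.x 1 0 0)⁻¹ * (S.x 0 W' 0)⁻¹)) = (S.x 0 W' 0 * ((S.x 1 0 0)⁻¹ * (S.x 0 W' 0)⁻¹)) * S.x 0 0 W := by
      rw [← mul_assoc, hz, mul_assoc, c1]
      simp only [mul_assoc]
    rw [cc_mul hσ hc c2, cc_mul hσ hc c1, cc_mul hσ hc i2]
    have j : ∀ y : R, S.x 0 0 W * y⁻¹ = y⁻¹ * S.x 0 0 W → ⁅sec hσ (S.x 0 0 W), sec hσ y⁆ * ⁅sec hσ (S.x 0 0 W), sec hσ y⁻¹⁆ = 1 := by
      intro y hy
      rw [← cc_mul hσ hc hy, mul_inv_cancel]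
      exact cc_one hσ hc _
    have j1 := j _ i1
    have j2 := j _ i2
    have m1 := sec_mem hσ hc i1
    set a := ⁅sec hσ (S.x 0 0 W), sec hσ (S.x 1 0 0)⁆
    set a' := ⁅sec hσ (S.x 0 0 W), sec hσ (S.x 1 0 0)⁻¹⁆
    set b := ⁅sec hσ (S.x 0 0 W), sec hσ (S.x 0 W' 0)⁆
    set b' := ⁅sec hσ (S.x 0 0 W), sec hσ (S.x 0 W' 0)⁻¹⁆
    have m2 := Subgroup.mem_center_iff.1 m1 b
    calc a * (b * (a' * b')) = a * ((b * a') * b') := by group
      _ = a * ((a' * b) * b') := by rw [m2]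
      _ = (a * a') * (b * b') := by group
      _ = 1 := by rw [j1, j2, one_mul]
  rw [S.e_split U W', cc_mul hσ hc (S.z_comm W 0 0 W'), h1, h2, one_mul]

open scoped IsMulCommutative in
/-- lifts of the centre commute with all lifts -/
lemma zU [Fintype K] (hns : ∀ x : K, x ^ 2 ≠ -1) (hex : ∃ y : K, y ≠ 0 ∧ y ≠ 1 ∧ y ≠ -1) (W T U W' : K) :
    ⁅sec hσ (S.x 0 0 W), sec hσ (S.x T U W')⁆ = 1 := by
  let B : K →+ K →+ Additive (Subgroup.center Γ) := by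
    refine AddMonoidHom.mk' (fun W => AddMonoidHom.mk' (fun T => Additive.ofMul
      ⟨⁅sec hσ (S.x 0 0 W), sec hσ (S.x T 0 0)⁆, sec_mem hσ hc (S.z_comm W T 0 0)⟩) ?_) ?_
    · intro T T'
      rw [← ofMul_mul]
      congr 1
      apply Subtype.ext
      rw [Subgroup.coe_mul]
      simp only
      obtain ⟨U, W1, h⟩ := S.x_add T T'
      rw [← cc_mul hσ hc (S.z_comm W T' 0 0), h, cc_mul hσ hc (S.z_comm W 0 U W1), S.zE hσ hc, mul_one]
    · intro W W'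
      ext T
      change ⁅sec hσ (S.x 0 0 (W + W')), sec hσ (S.x T 0 0)⁆ = ⁅sec hσ (S.x 0 0 W), sec hσ (S.x T 0 0)⁆ * ⁅sec hσ (S.x 0 0 W'), sec hσ (S.x T 0 0)⁆
      rw [← cc_mul_left hσ hc (S.z_comm W' T 0 0), x0_mul, add_zero]
  have hB : B = 0 := by
    apply mixed_zero τ hns hex
    intro κ hκ W T
    apply Additive.toMul.injective
    apply Subtype.ext
    change ⁅sec hσ (S.x 0 0 (κ ^ 2 * τ.φ κ * W)), sec hσ (S.x (κ * T) 0 0)⁆ = ⁅sec hσ (S.x 0 0 W), sec hσ (S.x T 0 0)⁆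
    rw [← cc_conj hσ hc (g := S.h (Units.mk0 κ hκ)) (S.z_comm W T 0 0), h_conj_x, h_conj_x]
    simp
  have h1 : ⁅sec hσ (S.x 0 0 W), sec hσ (S.x T 0 0)⁆ = 1 := by
    have h2 : B W T = 0 := by rw [hB]; rfl
    exact congrArg Subtype.val (congrArg Additive.toMul h2)
  rw [S.x_split T U W', cc_mul hσ hc (S.z_comm W 0 U W'), h1, S.zE hσ hc, one_mul]

open scoped IsMulCommutative in
/-- lifts of the abelian normal subgroup commute -/
lemma eE [Fintype K] (h9 : Fintype.card K ≠ 9) (h4 : Fintype.card K ≠ 4) (U W U' W' : K) :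
    ⁅sec hσ (S.x 0 U W), sec hσ (S.x 0 U' W')⁆ = 1 := by
  let B : K →+ K →+ Additive (Subgroup.center Γ) := by
    refine AddMonoidHom.mk' (fun U => AddMonoidHom.mk' (fun U' => Additive.ofMul
      ⟨⁅sec hσ (S.x 0 U 0), sec hσ (S.x 0 U' 0)⁆, sec_mem hσ hc (S.e_comm _ _ _ _)⟩) ?_) ?_
    · intro T T'
      rw [← ofMul_mul]
      congr 1
      apply Subtype.ext
      rw [Subgroup.coe_mul]
      simp only
      rw [← cc_mul hσ hc (S.e_comm _ _ _ _), x0_mul, add_zero]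
    · intro W W'
      ext T
      change ⁅sec hσ (S.x 0 (W + W') 0), sec hσ (S.x 0 T 0)⁆ = ⁅sec hσ (S.x 0 W 0), sec hσ (S.x 0 T 0)⁆ * ⁅sec hσ (S.x 0 W' 0), sec hσ (S.x 0 T 0)⁆
      rw [← cc_mul_left hσ hc (S.e_comm _ _ _ _), x0_mul, add_zero]
  have hB : B = 0 := by
    apply torus_form_zero B ?_ ?_ h4 h9
    · intro U
      apply Additive.toMul.injective
      apply Subtype.ext
      exact commutatorElement_self _
    · intro a ha U U'
      apply Additive.toMul.injective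
      apply Subtype.ext
      change ⁅sec hσ (S.x 0 (a * a * U) 0), sec hσ (S.x 0 (a * a * U') 0)⁆ = ⁅sec hσ (S.x 0 U 0), sec hσ (S.x 0 U' 0)⁆
      obtain ⟨κ, hκ⟩ := exists_kappa τ ha
      rw [← cc_conj hσ hc (g := S.h κ) (S.e_comm U 0 U' 0), h_conj_x, h_conj_x, hκ]
      simp
  have h1 : ⁅sec hσ (S.x 0 U 0), sec hσ (S.x 0 U' 0)⁆ = 1 := by
    have h2 : B U U' = 0 := by rw [hB]; rfl
    exact congrArg Subtype.val (congrArg Additive.toMul h2)
  have h2 : ∀ U W W', ⁅sec hσ (S.x 0 U W), sec hσ (S.x 0 0 W')⁆ = 1 := by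
    intro U W W'
    rw [← inv_inj, commutatorElement_inv, inv_one]
    exact S.zE hσ hc _ _ _
  rw [S.e_split U' W', cc_mul hσ hc (S.e_comm U W 0 W'), h2, mul_one, S.e_split U W, cc_mul_left hσ hc (S.e_comm 0 W U' 0), h1, S.zE hσ hc, one_mul]

end RS

end Cfsg.Agent.Ree
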