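import Cfsg.Agent.Ree.SchurR2

set_option autoImplicit false
set_option maxHeartbeats 1000000

/-!
The Schur multiplier of the Ree groups: the norm map.
-/

open scoped commutatorElement

namespace Cfsg.Agent.Ree

open Cfsg.Agent.Schur

namespace RS

variable {K : Type*} [Field K] {τ : Tits K} {R : Type*} [Group R] (S : RS τ R)
variable {Γ : Type*} [Group Γ] {σ : Γ →* R}

/-- the abelian normal subgroup of `U` -/
def EE : Subgroup R where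
  carrier := {g | ∃ U W, g = S.x 0 U W}
  mul_mem' := by
    rintro _ _ ⟨U, W, rfl⟩ ⟨U', W', rfl⟩
    exact ⟨_, _, S.x0_mul _ _ _ _⟩
  one_mem' := ⟨0, 0, S.x_zero.symm⟩
  inv_mem' := by
    rintro _ ⟨U, W, rfl⟩
    refine ⟨-U, -W, ?_⟩
    rw [x_inv]
    congr 1
    · ring
    · rw [map_zero]; ring
    · rw [map_zero]; ring

lemma mem_EE {g : R} : g ∈ S.EE ↔ ∃ U W, g = S.x 0 U W := Iff.rfl
lemma EE_mem (U W : K) : S.x 0 U W ∈ S.EE := ⟨_, _, rfl⟩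
lemma EE_le : S.EE ≤ S.U := by
  rintro _ ⟨U, W, rfl⟩; exact ⟨_, _, _, rfl⟩

lemma comm_mem_EE {a b : R} (ha : a ∈ S.U) (hb : b ∈ S.U) : ⁅a, b⁆ ∈ S.EE := by
  obtain ⟨T, U, W, rfl⟩ := ha
  obtain ⟨T', U', W', rfl⟩ := hb
  obtain ⟨W1, h⟩ := S.x_comm T U W T' U' W'
  have : ⁅S.x T U W, S.x T' U' W'⁆ = S.x T U W * S.x T' U' W' * (S.x T' U' W' * S.x T U W)⁻¹ := by
    rw [commutatorElement_def]; group
  rw [this, h]
  exact S.EE_mem _ _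

lemma comm_mem_Z {a b : R} (ha : a ∈ S.U) (hb : b ∈ S.EE) : ∃ W, ⁅a, b⁆ = S.x 0 0 W := by
  obtain ⟨T, U, W, rfl⟩ := ha
  obtain ⟨U', W', rfl⟩ := hb
  have : ⁅S.x T U W, S.x 0 U' W'⁆ = S.x T U W * S.x 0 U' W' * (S.x 0 U' W' * S.x T U W)⁻¹ := by
    rw [commutatorElement_def]; group
  rw [this, x_comm0]
  exact ⟨_, rfl⟩

lemma conj_EE {κ : Kˣ} {b : R} (hb : b ∈ S.EE) : S.h κ * b * (S.h κ)⁻¹ ∈ S.EE := by
  obtain ⟨U', W', rfl⟩ := hb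
  rw [h_conj_x, mul_zero]
  exact S.EE_mem _ _

section main

variable [Fintype K] (hns : ∀ x : K, x ^ 2 ≠ -1) (hex : ∃ y : K, y ≠ 0 ∧ y ≠ 1 ∧ y ≠ -1)
variable (h9 : Fintype.card K ≠ 9) (h4 : Fintype.card K ≠ 4)
variable (hσ : Function.Surjective σ) (hc : σ.ker ≤ Subgroup.center Γ)

include hσ hc h9 h4 in
theorem preE_comm (x y : S.EE.comap σ) : x * y = y * x := by
  apply Subtype.ext
  change (x : Γ) * y = y * x
  rw [cc_iff hσ hc]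
  obtain ⟨U, W, h⟩ := x.2
  obtain ⟨U', W', h'⟩ := y.2
  rw [h, h']
  exact S.eE hσ hc h9 h4 _ _ _ _

include hσ hc hns hex in
theorem preZ_comm {a b : Γ} {W : K} (ha : σ a = S.x 0 0 W) (hb : σ b ∈ S.U) : a * b = b * a := by
  rw [cc_iff hσ hc, ha]
  obtain ⟨T', U', W', h'⟩ := hb
  rw [h']
  exact S.zU hσ hc hns hex _ _ _ _

open scoped IsMulCommutative in
include hns hex h9 h4 hσ hc in
/-- elements of the kernel in the commutator subgroup of the preimage of the Sylow subgroup -/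
theorem ker_pow_eq_one {k : Γ} (hk : k ∈ σ.ker) (hk' : k ∈ ⁅S.U.comap σ, S.U.comap σ⁆) :
    k ^ Nat.card Kˣ = 1 := by
  classical
  rw [Nat.card_eq_fintype_card]
  letI inst : CommGroup (S.EE.comap σ) :=
    { (inferInstance : Group (S.EE.comap σ)) with mul_comm := S.preE_comm h9 h4 hσ hc }
  have hsσ : ∀ g : R, σ (sec hσ g) = g := sec_eq hσ
  set s := sec hσ with hs
  have hconj : ∀ (κ : Kˣ) (x : Γ), x ∈ S.EE.comap σ → s (S.h κ) * x * (s (S.h κ))⁻¹ ∈ S.EE.comap σ := by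
    intro κ x hx
    rw [Subgroup.mem_comap, map_mul, map_mul, map_inv, hsσ]
    exact S.conj_EE hx
  let cj : Kˣ → (S.EE.comap σ →* S.EE.comap σ) := fun μ =>
    { toFun := fun x => ⟨s (S.h μ) * x * (s (S.h μ))⁻¹, hconj μ x x.2⟩
      map_one' := by
        apply Subtype.ext
        show s (S.h μ) * (1 : Γ) * (s (S.h μ))⁻¹ = 1
        rw [mul_one, mul_inv_cancel]
      map_mul' := fun x y => by
        apply Subtype.ext
        show s (S.h μ) * ((x : Γ) * y) * (s (S.h μ))⁻¹ =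
          s (S.h μ) * x * (s (S.h μ))⁻¹ * (s (S.h μ) * y * (s (S.h μ))⁻¹)
        group }
  have hcj : ∀ μ (x : S.EE.comap σ), ((cj μ x : S.EE.comap σ) : Γ) = s (S.h μ) * x * (s (S.h μ))⁻¹ := fun _ _ => rfl
  let N : S.EE.comap σ →* S.EE.comap σ := ∏ μ : Kˣ, cj μ
  have hN : ∀ x, N x = ∏ μ : Kˣ, cj μ x := fun x => MonoidHom.finsetProd_apply _ _ _
  have hcjm : ∀ μ ν x, cj μ (cj ν x) = cj (μ * ν) x := by
    intro μ ν x
    apply Subtype.ext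
    rw [hcj, hcj, hcj]
    have h1 : (s (S.h (μ * ν)))⁻¹ * (s (S.h μ) * s (S.h ν)) ∈ σ.ker := by
      rw [MonoidHom.mem_ker, map_mul σ, map_inv, map_mul σ, hsσ, hsσ, hsσ, map_mul S.h, inv_mul_cancel]
    have h2 := Subgroup.mem_center_iff.1 (hc h1) x
    have h3 : s (S.h μ) * s (S.h ν) = s (S.h (μ * ν)) * ((s (S.h (μ * ν)))⁻¹ * (s (S.h μ) * s (S.h ν))) := by
      group
    set κ := (s (S.h (μ * ν)))⁻¹ * (s (S.h μ) * s (S.h ν))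
    calc s (S.h μ) * (s (S.h ν) * x * (s (S.h ν))⁻¹) * (s (S.h μ))⁻¹
        = (s (S.h μ) * s (S.h ν)) * x * (s (S.h μ) * s (S.h ν))⁻¹ := by group
      _ = s (S.h (μ * ν)) * (κ * x) * κ⁻¹ * (s (S.h (μ * ν)))⁻¹ := by rw [h3]; group
      _ = s (S.h (μ * ν)) * x * (s (S.h (μ * ν)))⁻¹ := by rw [← h2]; group
  have hNinv : ∀ ν x, N (cj ν x) = N x := by
    intro ν x
    rw [hN, hN]
    refine Fintype.prod_equiv (Equiv.mulRight ν) _ _ fun μ => ?_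
    exact hcjm μ ν x
  have hkA : ∀ k ∈ σ.ker, k ∈ S.EE.comap σ := by
    intro k hk
    rw [Subgroup.mem_comap, MonoidHom.mem_ker.1 hk]
    exact Subgroup.one_mem _
  have hNk : ∀ (k : Γ) (hk : k ∈ σ.ker), N ⟨k, hkA k hk⟩ = ⟨k, hkA k hk⟩ ^ Fintype.card Kˣ := by
    intro k hk
    rw [hN, Finset.prod_congr rfl (fun μ _ => ?_), Finset.prod_const, Finset.card_univ]
    apply Subtype.ext
    rw [hcj]
    show s (S.h μ) * k * (s (S.h μ))⁻¹ = k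
    rw [Subgroup.mem_center_iff.1 (hc hk) (s (S.h μ)), mul_inv_cancel_right]
  -- membership
  have mEE : ∀ {a b : Γ}, σ a ∈ S.U → σ b ∈ S.U → ⁅a, b⁆ ∈ S.EE.comap σ := by
    intro a b ha hb
    rw [Subgroup.mem_comap, map_commutatorElement]
    exact S.comm_mem_EE ha hb
  have hEU : ∀ {a : Γ}, a ∈ S.EE.comap σ → σ a ∈ S.U := fun h => S.EE_le h
  have cE : ∀ {a b : Γ}, a ∈ S.EE.comap σ → b ∈ S.EE.comap σ → a * b = b * a := by
    intro a b ha hb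
    exact congrArg Subtype.val (S.preE_comm h9 h4 hσ hc ⟨a, ha⟩ ⟨b, hb⟩)
  have cZ : ∀ {a c b : Γ}, σ a ∈ S.U → c ∈ S.EE.comap σ → σ b ∈ S.U → b * ⁅a, c⁆ = ⁅a, c⁆ * b := by
    intro a c b ha hcc hb
    obtain ⟨W, hW⟩ := S.comm_mem_Z ha hcc
    exact (S.preZ_comm hns hex hσ hc (W := W) (by rw [map_commutatorElement]; exact hW) hb).symm
  have x0U : ∀ T U W, σ (s (S.x T U W)) ∈ S.U := fun T U W => by rw [hsσ]; exact S.x_mem_U _ _ _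
  have x0E : ∀ U W, s (S.x 0 U W) ∈ S.EE.comap σ := fun U W => by rw [Subgroup.mem_comap, hsσ]; exact S.EE_mem _ _
  -- commutators of `U` and `E`: only depend on two coordinates
  have dep3 : ∀ (a c : Γ) (T U W U' W' : K), σ a = S.x T U W → σ c = S.x 0 U' W' → ⁅a, c⁆ = ⁅s (S.x T 0 0), s (S.x 0 U' 0)⁆ := by
    intro a c T U W U' W' ha hcc
    have h1 : ⁅a, c⁆ = ⁅s (S.x T 0 0) * s (S.x 0 U W), s (S.x 0 U' 0) * s (S.x 0 0 W')⁆ := by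
      apply comm_congr hc
      · rw [map_mul, hsσ, hsσ, ha, ← x_split]
      · rw [map_mul, hsσ, hsσ, hcc, ← e_split]
    have h2 : ⁅s (S.x 0 U W), s (S.x 0 U' 0) * s (S.x 0 0 W')⁆ = 1 :=
      comm_one_iff.2 (cE (x0E _ _) (mul_mem (x0E _ _) (x0E _ _)))
    have h3 : ⁅s (S.x T 0 0), s (S.x 0 0 W')⁆ = 1 :=
      comm_one_iff.2 (S.preZ_comm hns hex hσ hc (W := W') (hsσ _) (x0U _ _ _)).symm
    rw [h1, comm_mul_left' (by rw [h2, mul_one, one_mul]), h2, one_mul, comm_mul_right' (by rw [h3, mul_one, one_mul]), h3, mul_one]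
  -- the first form
  let B3 : K →+ K →+ Additive (S.EE.comap σ) := by
    refine AddMonoidHom.mk' (fun T => AddMonoidHom.mk' (fun U => Additive.ofMul
      (N ⟨⁅s (S.x T 0 0), s (S.x 0 U 0)⁆, mEE (x0U _ _ _) (x0U _ _ _)⟩)) ?_) ?_
    · intro U U'
      rw [← ofMul_mul, ← map_mul]
      congr 2
      apply Subtype.ext
      rw [Subgroup.coe_mul]
      simp only
      rw [← comm_mul_right' (cZ (x0U _ _ _) (x0E _ _) (x0U _ _ _))]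
      apply comm_congr hc rfl
      rw [map_mul, hsσ, hsσ, hsσ, x0_mul, add_zero]
    · intro T T'
      refine AddMonoidHom.ext fun U => ?_
      change Additive.ofMul (N ⟨⁅s (S.x (T + T') 0 0), s (S.x 0 U 0)⁆, _⟩) =
        Additive.ofMul (N ⟨⁅s (S.x T 0 0), s (S.x 0 U 0)⁆, _⟩) + Additive.ofMul (N ⟨⁅s (S.x T' 0 0), s (S.x 0 U 0)⁆, _⟩)
      rw [← ofMul_mul, mul_comm, ← map_mul]
      congr 2
      apply Subtype.ext
      change ⁅s (S.x (T + T') 0 0), s (S.x 0 U 0)⁆ = ⁅s (S.x T' 0 0), s (S.x 0 U 0)⁆ * ⁅s (S.x T 0 0), s (S.x 0 U 0)⁆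
      rw [← comm_mul_left' (cZ (x0U _ _ _) (x0E _ _) (x0U _ _ _))]
      symm
      obtain ⟨U1, W1, h⟩ := S.x_add T T'
      apply dep3 _ _ (T + T') U1 W1 U 0 ?_ (hsσ _)
      rw [map_mul, hsσ, hsσ, h, ← x_split]
  have hcjB3 : ∀ T U, B3 (-T) U = B3 T U := by
    intro T U
    change Additive.ofMul (N ⟨⁅s (S.x (-T) 0 0), s (S.x 0 U 0)⁆, _⟩) = Additive.ofMul (N ⟨⁅s (S.x T 0 0), s (S.x 0 U 0)⁆, _⟩)
    congr 1
    rw [← hNinv (-1) ⟨⁅s (S.x T 0 0), s (S.x 0 U 0)⁆, mEE (x0U _ _ _) (x0U _ _ _)⟩]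
    congr 1
    apply Subtype.ext
    rw [hcj]
    change ⁅s (S.x (-T) 0 0), s (S.x 0 U 0)⁆ = s (S.h (-1)) * ⁅s (S.x T 0 0), s (S.x 0 U 0)⁆ * (s (S.h (-1)))⁻¹
    rw [comm_conj]
    symm
    apply dep3 _ _ (-T) 0 0 U 0
    · rw [map_mul, map_mul, map_inv, hsσ, hsσ, h_conj_x]
      congr 1 <;> simp
    · rw [map_mul, map_mul, map_inv, hsσ, hsσ, h_conj_x]
      congr 1 <;> simp
  have hB3 : ∀ T U, B3 T U = 0 := by
    intro T U
    have h1 := hcjB3 T U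
    rw [map_neg, AddMonoidHom.neg_apply] at h1
    have h2 : B3 (T + T + T) U = B3 T U + B3 T U + B3 T U := by
      rw [map_add, map_add, AddMonoidHom.add_apply, AddMonoidHom.add_apply]
    have h3 : T + T + T = 0 := by linear_combination T * τ.h3
    rw [h3, map_zero, AddMonoidHom.zero_apply] at h2
    have h5 : B3 T U + B3 T U = 0 := by
      nth_rewrite 1 [← h1]
      exact neg_add_cancel _
    rw [h5, zero_add] at h2
    exact h2.symm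
  have N3 : ∀ {a c : Γ} (ha : σ a ∈ S.U) (hcc : c ∈ S.EE.comap σ), N ⟨⁅a, c⁆, mEE ha (hEU hcc)⟩ = 1 := by
    intro a c ha hcc
    obtain ⟨T, U, W, h⟩ := ha
    obtain ⟨U', W', h'⟩ := hcc
    have h1 := hB3 T U'
    have h2 : (⟨⁅a, c⁆, mEE ⟨T, U, W, h⟩ (hEU ⟨U', W', h'⟩)⟩ : S.EE.comap σ) =
        ⟨⁅s (S.x T 0 0), s (S.x 0 U' 0)⁆, mEE (x0U _ _ _) (x0U _ _ _)⟩ := Subtype.ext (dep3 a c T U W U' W' h h')
    rw [h2]
    exact congrArg Additive.toMul h1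
  -- the norm is invariant under conjugation by the preimage of `U`
  have Nconj : ∀ {a y : Γ} (_ : σ a ∈ S.U) (hy : y ∈ S.EE.comap σ) (hy' : a * y * a⁻¹ ∈ S.EE.comap σ), N ⟨a * y * a⁻¹, hy'⟩ = N ⟨y, hy⟩ := by
    intro a y ha hy hy'
    have h1 : (⟨a * y * a⁻¹, hy'⟩ : S.EE.comap σ) = ⟨⁅a, y⁆, mEE ha (hEU hy)⟩ * ⟨y, hy⟩ := by
      apply Subtype.ext
      change a * y * a⁻¹ = ⁅a, y⁆ * y
      rw [commutatorElement_def]; group
    rw [h1, map_mul, N3 ha hy, one_mul]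
  -- bimultiplicativity of `N ⁅a, b⁆`
  have Nl : ∀ {a a' b : Γ} (ha : σ a ∈ S.U) (ha' : σ a' ∈ S.U) (hb : σ b ∈ S.U) (haa : σ (a * a') ∈ S.U),
      N ⟨⁅a * a', b⁆, mEE haa hb⟩ = N ⟨⁅a', b⁆, mEE ha' hb⟩ * N ⟨⁅a, b⁆, mEE ha hb⟩ := by
    intro a a' b ha ha' hb haa
    have hy' : a * ⁅a', b⁆ * a⁻¹ ∈ S.EE.comap σ := by
      have h1 : a * ⁅a', b⁆ * a⁻¹ = ⁅a, ⁅a', b⁆⁆ * ⁅a', b⁆ := by
        rw [commutatorElement_def a]; group
      rw [h1]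
      exact mul_mem (mEE ha (hEU (mEE ha' hb))) (mEE ha' hb)
    have h1 : (⟨⁅a * a', b⁆, mEE haa hb⟩ : S.EE.comap σ) = ⟨a * ⁅a', b⁆ * a⁻¹, hy'⟩ * ⟨⁅a, b⁆, mEE ha hb⟩ := by
      apply Subtype.ext
      change ⁅a * a', b⁆ = a * ⁅a', b⁆ * a⁻¹ * ⁅a, b⁆
      simp only [commutatorElement_def]; group
    rw [h1, map_mul, Nconj ha (mEE ha' hb)]
  have Ninv : ∀ {a b : Γ} (ha : σ a ∈ S.U) (hb : σ b ∈ S.U), N ⟨⁅a, b⁆, mEE ha hb⟩ = (N ⟨⁅b, a⁆, mEE hb ha⟩)⁻¹ := by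
    intro a b ha hb
    rw [← map_inv]
    congr 1
    apply Subtype.ext
    change ⁅a, b⁆ = ⁅b, a⁆⁻¹
    rw [commutatorElement_inv]
  have Nr : ∀ {a b b' : Γ} (ha : σ a ∈ S.U) (hb : σ b ∈ S.U) (hb' : σ b' ∈ S.U) (hbb : σ (b * b') ∈ S.U),
      N ⟨⁅a, b * b'⁆, mEE ha hbb⟩ = N ⟨⁅a, b⁆, mEE ha hb⟩ * N ⟨⁅a, b'⁆, mEE ha hb'⟩ := by
    intro a b b' ha hb hb' hbb
    rw [Ninv ha hbb, Nl hb hb' ha hbb, mul_inv, Ninv ha hb, Ninv ha hb', mul_comm]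
  -- dependence on the first coordinate only
  have dep4 : ∀ (a b : Γ) (T U W T' U' W' : K) (ha : σ a = S.x T U W) (hb : σ b = S.x T' U' W'),
      N ⟨⁅a, b⁆, mEE ⟨T, U, W, ha⟩ ⟨T', U', W', hb⟩⟩ = N ⟨⁅s (S.x T 0 0), s (S.x T' 0 0)⁆, mEE (x0U _ _ _) (x0U _ _ _)⟩ := by
    intro a b T U W T' U' W' ha hb
    have hm1 : σ (s (S.x T 0 0) * s (S.x 0 U W)) ∈ S.U := by rw [map_mul]; exact mul_mem (x0U _ _ _) (x0U _ _ _)
    have hm2 : σ (s (S.x T' 0 0) * s (S.x 0 U' W')) ∈ S.U := by rw [map_mul]; exact mul_mem (x0U _ _ _) (x0U _ _ _)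
    have h1 : (⟨⁅a, b⁆, mEE ⟨T, U, W, ha⟩ ⟨T', U', W', hb⟩⟩ : S.EE.comap σ) =
        ⟨⁅s (S.x T 0 0) * s (S.x 0 U W), s (S.x T' 0 0) * s (S.x 0 U' W')⁆, mEE hm1 hm2⟩ := by
      apply Subtype.ext
      apply comm_congr hc
      · rw [map_mul, hsσ, hsσ, ha, ← x_split]
      · rw [map_mul, hsσ, hsσ, hb, ← x_split]
    rw [h1, Nl (x0U _ _ _) (x0U _ _ _) hm2 hm1, Nr (x0U T 0 0) (x0U _ _ _) (x0U _ _ _) hm2]
    have e1 : N ⟨⁅s (S.x 0 U W), s (S.x T' 0 0) * s (S.x 0 U' W')⁆, mEE (x0U _ _ _) hm2⟩ = 1 := by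
      rw [Ninv (x0U _ _ _) hm2, N3 hm2 (x0E _ _), inv_one]
    have e2 : N ⟨⁅s (S.x T 0 0), s (S.x 0 U' W')⁆, mEE (x0U _ _ _) (x0U _ _ _)⟩ = 1 := N3 (x0U _ _ _) (x0E _ _)
    rw [e1, e2, one_mul, mul_one]
  let B4 : K →+ K →+ Additive (S.EE.comap σ) := by
    refine AddMonoidHom.mk' (fun T => AddMonoidHom.mk' (fun T' => Additive.ofMul
      (N ⟨⁅s (S.x T 0 0), s (S.x T' 0 0)⁆, mEE (x0U _ _ _) (x0U _ _ _)⟩)) ?_) ?_
    · intro T1 T2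
      obtain ⟨U1, W1, h⟩ := S.x_add T1 T2
      have hm : σ (s (S.x T1 0 0) * s (S.x T2 0 0)) = S.x (T1 + T2) U1 W1 := by rw [map_mul, hsσ, hsσ, h, ← x_split]
      rw [← ofMul_mul, ← Nr (x0U _ _ _) (x0U _ _ _) (x0U _ _ _) ⟨_, _, _, hm⟩]
      congr 1
      symm
      exact dep4 _ _ T 0 0 (T1 + T2) U1 W1 (hsσ _) hm
    · intro T1 T2
      refine AddMonoidHom.ext fun T => ?_
      change Additive.ofMul (N ⟨⁅s (S.x (T1 + T2) 0 0), s (S.x T 0 0)⁆, _⟩) =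
        Additive.ofMul (N ⟨⁅s (S.x T1 0 0), s (S.x T 0 0)⁆, _⟩) + Additive.ofMul (N ⟨⁅s (S.x T2 0 0), s (S.x T 0 0)⁆, _⟩)
      obtain ⟨U1, W1, h⟩ := S.x_add T1 T2
      have hm : σ (s (S.x T1 0 0) * s (S.x T2 0 0)) = S.x (T1 + T2) U1 W1 := by rw [map_mul, hsσ, hsσ, h, ← x_split]
      rw [← ofMul_mul, mul_comm, ← Nl (x0U _ _ _) (x0U _ _ _) (x0U _ _ _) ⟨_, _, _, hm⟩]
      congr 1
      symm
      exact dep4 _ _ (T1 + T2) U1 W1 T 0 0 hm (hsσ _)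
  have hB4 : B4 = 0 := by
    apply torus_form_zero B4 ?_ ?_ h4 h9
    · intro T
      change Additive.ofMul (N ⟨⁅s (S.x T 0 0), s (S.x T 0 0)⁆, _⟩) = 0
      have h1 : (⟨⁅s (S.x T 0 0), s (S.x T 0 0)⁆, mEE (x0U _ _ _) (x0U _ _ _)⟩ : S.EE.comap σ) = 1 :=
        Subtype.ext (commutatorElement_self _)
      rw [h1, map_one]; rfl
    · intro a ha T T'
      change Additive.ofMul (N ⟨⁅s (S.x (a * a * T) 0 0), s (S.x (a * a * T') 0 0)⁆, _⟩) =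
        Additive.ofMul (N ⟨⁅s (S.x T 0 0), s (S.x T' 0 0)⁆, _⟩)
      congr 1
      rw [← hNinv (Units.mk0 (a * a) (mul_ne_zero ha ha)) ⟨⁅s (S.x T 0 0), s (S.x T' 0 0)⁆, mEE (x0U _ _ _) (x0U _ _ _)⟩]
      have e1 : σ (s (S.h (Units.mk0 (a * a) (mul_ne_zero ha ha))) * s (S.x T 0 0) * (s (S.h (Units.mk0 (a * a) (mul_ne_zero ha ha))))⁻¹) = S.x (a * a * T) 0 0 := by
        rw [map_mul, map_mul, map_inv, hsσ, hsσ, h_conj_x, mul_zero, mul_zero, Units.val_mk0]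
      have e2 : σ (s (S.h (Units.mk0 (a * a) (mul_ne_zero ha ha))) * s (S.x T' 0 0) * (s (S.h (Units.mk0 (a * a) (mul_ne_zero ha ha))))⁻¹) = S.x (a * a * T') 0 0 := by
        rw [map_mul, map_mul, map_inv, hsσ, hsσ, h_conj_x, mul_zero, mul_zero, Units.val_mk0]
      rw [← dep4 _ _ _ _ _ _ _ _ e1 e2]
      congr 1
      apply Subtype.ext
      rw [hcj]
      exact (comm_conj _ _ _).symm
  -- `N` is trivial on the commutator subgroup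
  have hle : ⁅S.U.comap σ, S.U.comap σ⁆ ≤ N.ker.map (S.EE.comap σ).subtype := by
    rw [Subgroup.commutator_le]
    intro x hx y hy
    refine ⟨⟨⁅x, y⁆, mEE hx hy⟩, ?_, rfl⟩
    rw [SetLike.mem_coe, MonoidHom.mem_ker]
    obtain ⟨T, U, W, h⟩ := hx
    obtain ⟨T', U', W', h'⟩ := hy
    have h1 : B4 T T' = 0 := by rw [hB4]; rfl
    rw [dep4 x y T U W T' U' W' h h']
    exact congrArg Additive.toMul h1
  obtain ⟨y, hy, hyk⟩ := hle hk'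
  have hyk' : (y : Γ) = k := hyk
  have hy2 : y = ⟨k, hkA k hk⟩ := Subtype.ext hyk'
  rw [SetLike.mem_coe, MonoidHom.mem_ker, hy2, hNk k hk] at hy
  exact congrArg Subtype.val hy

end main

end RS

end Cfsg.Agent.Ree
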