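import Cfsg.Agent.Ree.SchurR3

set_option autoImplicit false
set_option maxHeartbeats 1000000

/-!
The Schur multiplier of the Ree groups is trivial.
-/

open scoped commutatorElement

namespace Cfsg.Agent.Ree

open Cfsg.Agent.Schur

namespace RS

universe u

variable {K : Type*} [Field K] {τ : Tits K} {R : Type u} [Group R] (S : RS τ R)
variable {Γ : Type*} [Group Γ] {σ : Γ →* R}
variable [Fintype K] {m : ℕ} (hK : Fintype.card K = 3 ^ (2 * m + 1))

/-- moving a Sylow subgroup of the extension over a given subgroup -/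
lemma move {p : ℕ} [hp : Fact p.Prime] [Finite Γ] (hσ : Function.Surjective σ) (P : Sylow p Γ) (Q : Sylow p R) (D : Subgroup R) (hQ : (Q : Subgroup R) = D) :
    ∃ γ : Γ, ∀ a ∈ (P : Subgroup Γ), γ * a * γ⁻¹ ∈ D.comap σ := by
  have : Finite R := Finite.of_surjective σ hσ
  obtain ⟨g, hg⟩ := MulAction.exists_smul_eq R (P.mapSurjective hσ) Q
  obtain ⟨γ, rfl⟩ := hσ g
  refine ⟨γ, fun a ha => ?_⟩
  have h1 : σ γ * σ a * (σ γ)⁻¹ ∈ ((σ γ • (P.mapSurjective hσ) : Sylow p _) : Subgroup R) := by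
    refine Subgroup.smul_mem_pointwise_smul (σ a) (MulAut.conj (σ γ)) _ ?_
    exact ⟨a, ha, rfl⟩
  rw [hg, hQ] at h1
  rw [Subgroup.mem_comap, map_mul, map_mul, map_inv]
  exact h1

include S hK in
theorem ker_two [Finite Γ] (hst : IsStemExtension σ) (P : Sylow 2 Γ) [Fact (Nat.Prime 2)] :
    (σ.subgroupMap (P : Subgroup Γ)).ker = ⊥ := by
  have hfin := S.finite_R
  obtain ⟨γ, hγ⟩ := move hst.1 P (S.sylE hK) S.E8 (S.coe_sylE hK)
  have hcomm : ∀ a ∈ (P : Subgroup Γ), ∀ b ∈ (P : Subgroup Γ), a * b = b * a := by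
    intro a ha b hb
    have h1 : (γ * a * γ⁻¹) * (γ * b * γ⁻¹) = (γ * b * γ⁻¹) * (γ * a * γ⁻¹) := by
      rw [cc_iff hst.1 hst.2.1]
      exact S.lift_E8 hst.1 hst.2.1 hK (hγ a ha) (hγ b hb)
    have h2 : γ * (a * b) * γ⁻¹ = γ * (b * a) * γ⁻¹ := by
      calc γ * (a * b) * γ⁻¹ = (γ * a * γ⁻¹) * (γ * b * γ⁻¹) := by group
        _ = _ := by rw [h1]; group
    exact mul_left_cancel (mul_right_cancel h2)
  rw [eq_bot_iff]
  intro a ha
  have ha1 := (stem_sylow hst P).2.2 ha
  have h0 : commutator (P : Subgroup Γ) = ⊥ := by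
    rw [commutator_def, Subgroup.commutator_eq_bot_iff_le_centralizer]
    intro x _
    rw [Subgroup.mem_centralizer_iff]
    intro y _
    exact Subtype.ext (hcomm y y.2 x x.2)
  rw [h0] at ha1
  exact ha1

include S hK in
theorem ker_three (hq : 3 < Fintype.card K) (hns : ∀ x : K, x ^ 2 ≠ -1) [Finite Γ] (hst : IsStemExtension σ) (P : Sylow 3 Γ) [Fact (Nat.Prime 3)] :
    (σ.subgroupMap (P : Subgroup Γ)).ker = ⊥ := by
  have hfin := S.finite_R
  have hodd := two_kH hK
  have hmod := four_kA hK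
  have h9 : Fintype.card K ≠ 9 := by omega
  have h4 : Fintype.card K ≠ 4 := by omega
  have hex : ∃ y : K, y ≠ 0 ∧ y ≠ 1 ∧ y ≠ -1 := by
    classical
    by_contra hcon
    push Not at hcon
    have h3 : (Finset.univ : Finset K) ⊆ {0, 1, -1} := by
      intro x _
      simp only [Finset.mem_insert, Finset.mem_singleton]
      by_cases h0 : x = 0
      · left; exact h0
      · by_cases h1 : x = 1
        · right; left; exact h1
        · right; right; exact hcon x h0 h1
    have h4 := Finset.card_le_card h3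
    have h5 : ({0, 1, -1} : Finset K).card ≤ 3 := Finset.card_le_three
    rw [Finset.card_univ] at h4
    omega
  obtain ⟨γ, hγ⟩ := move hst.1 P (S.sylU hK) S.U (S.coe_sylU hK)
  let f : (P : Subgroup Γ) →* Γ := (MulAut.conj γ).toMonoidHom.comp (P : Subgroup Γ).subtype
  have hf : ∀ a, f a = γ * a * γ⁻¹ := fun a => rfl
  rw [eq_bot_iff]
  intro a ha
  have ha1 := (stem_sylow hst P).2.2 ha
  have haσ : (a : Γ) ∈ σ.ker := by
    rw [MonoidHom.mem_ker] at ha ⊢
    exact congrArg Subtype.val ha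
  have h1 : f a ∈ ⁅S.U.comap σ, S.U.comap σ⁆ := by
    have h2 : f a ∈ (commutator (P : Subgroup Γ)).map f := ⟨a, ha1, rfl⟩
    rw [commutator_def, Subgroup.map_commutator] at h2
    refine Subgroup.commutator_mono ?_ ?_ h2 <;>
    · rintro _ ⟨x, -, rfl⟩
      exact hγ x x.2
  have h2 : f a = a := by
    rw [hf, Subgroup.mem_center_iff.1 (hst.2.1 haσ) γ, mul_inv_cancel_right]
  rw [h2] at h1
  have h3 := S.ker_pow_eq_one hns hex h9 h4 hst.1 hst.2.1 haσ h1
  obtain ⟨n, hn⟩ := IsPGroup.iff_orderOf.1 P.isPGroup' a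
  rw [Subgroup.mem_bot, ← orderOf_eq_one_iff, hn]
  have h4 : orderOf a ∣ Nat.card Kˣ := by
    apply orderOf_dvd_of_pow_eq_one
    exact Subtype.ext h3
  rw [hn, Nat.card_units, Nat.card_eq_fintype_card] at h4
  rcases n with _ | n
  · rw [pow_zero]
  · exfalso
    have h5 : 3 ∣ Fintype.card K - 1 := (dvd_pow_self 3 (Nat.succ_ne_zero n)).trans h4
    have h6 : 3 ∣ Fintype.card K := by rw [hK]; exact dvd_pow_self 3 (Nat.succ_ne_zero _)
    omega

include S hK in
/-- the Schur multiplier is trivial -/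
theorem schur (hq : 3 < Fintype.card K) (hns : ∀ x : K, x ^ 2 ≠ -1) : Cfsg.HasCyclicSchurMultiplier R 1 := by
  have hfin := S.finite_R
  apply hasCyclicSchurMultiplier_one_of
  intro Γ _ _ σ hst
  apply ker_eq_bot_of_sylow hst.2.1
  intro p hp P hd
  by_cases h2 : p = 2
  · subst h2
    exact S.ker_two hK hst P
  by_cases h3 : p = 3
  · subst h3
    exact S.ker_three hK hq hns hst P
  exfalso
  have hp3 : 3 < p := by
    have := hp.out.two_le
    omega
  refine not_dvd_card_ker_of_cyclic hst P ?_ hd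
  exact S.sylow_cyclic hK hq hp3 (P.mapSurjective hst.1)

include S hK in
/-- the Schur multiplier is trivial -/
theorem schur' (hq : 3 < Fintype.card K) : Cfsg.HasCyclicSchurMultiplier R 1 := by
  apply S.schur hK hq
  intro x hx
  have h1 := τ.sum_sq_ne (a := x) (b := 1) (by rw [hx]; ring)
  exact one_ne_zero h1.2

end RS

end Cfsg.Agent.Ree
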